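import Cfsg.Agent.Witt.Basic
import Cfsg.Agent.ClGeo.Symp
import Cfsg.Agent.ClassSp.Order
import Cfsg.Prelude.Def_ClassicalGeometry

set_option autoImplicit false

/-!
The order of the stabiliser of a totally isotropic subspace in the symplectic group.
-/

namespace Cfsg.Agent.SpOrd

open Matrix Module

theorem card_of_orbit {H X : Type*} [Group H] (S : Subgroup H) (f : H → X) (T : Set X)
    (hf : ∀ g, f g ∈ T) (hs : ∀ t ∈ T, ∃ g, f g = t) (h : ∀ g g', f g = f g' ↔ g⁻¹ * g' ∈ S) :
    Nat.card H = Nat.card T * Nat.card S := by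
  rw [Subgroup.card_eq_card_quotient_mul_card_subgroup S]
  congr 1
  refine Nat.card_congr (Equiv.ofBijective (Quotient.lift (fun g => (⟨f g, hf g⟩ : T)) ?_) ⟨?_, ?_⟩)
  · intro a b hab
    have : a⁻¹ * b ∈ S := QuotientGroup.leftRel_apply.1 hab
    exact Subtype.ext ((h a b).2 this)
  · intro a b
    induction a using Quotient.inductionOn with | h a =>
    induction b using Quotient.inductionOn with | h b =>
    intro hab
    apply Quotient.sound
    rw [← Quotient.eq_iff_equiv, Quotient.eq]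
    exact QuotientGroup.leftRel_apply.2 ((h a b).1 (congrArg Subtype.val hab))
  · rintro ⟨t, ht⟩
    obtain ⟨g, rfl⟩ := hs t ht
    exact ⟨Quotient.mk _ g, rfl⟩

variable {F : Type*} [Field F] [Fintype F] (m : ℕ)

/-- the space -/
abbrev V (F : Type*) (m : ℕ) := Fin m ⊕ Fin m → F

/-- isotropic frames -/
def Fr (F : Type*) [Field F] (m k : ℕ) : Set (Fin k → V F m) :=
  {x | LinearIndependent F x ∧ ∀ i j, Cfsg.Agent.ClGeo.sB F m (x i) (x j) = 0}

omit [Fintype F] in
theorem finrank_V : finrank F (V F m) = 2 * m := by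
  rw [finrank_fintype_fun_eq_card, Fintype.card_sum, Fintype.card_fin]; ring

theorem card_sub (W : Submodule F (V F m)) : Nat.card W = Fintype.card F ^ finrank F W := by
  classical
  rw [Nat.card_eq_fintype_card]
  exact Module.card_eq_pow_finrank

theorem card_next {k : ℕ} {x : Fin k → V F m} (hx : x ∈ Fr F m k) :
    Nat.card {y : V F m // (∀ i, Cfsg.Agent.ClGeo.sB F m (x i) y = 0) ∧ y ∉ Submodule.span F (Set.range x)} =
      Fintype.card F ^ (2 * m - k) - Fintype.card F ^ k := by
  classical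
  set W := Submodule.span F (Set.range x) with hW
  have hfW : finrank F W = k := by
    rw [hW, finrank_span_eq_card hx.1, Fintype.card_fin]
  set Wp := (Cfsg.Agent.ClGeo.sB F m).orthogonal W with hWp
  have hfWp : finrank F Wp = 2 * m - k := by
    rw [hWp, LinearMap.BilinForm.finrank_orthogonal (Cfsg.Agent.ClGeo.sB_nondegenerate m), hfW, finrank_V]
  have hmem : ∀ y, y ∈ Wp ↔ ∀ i, Cfsg.Agent.ClGeo.sB F m (x i) y = 0 := by
    intro y
    rw [hWp, LinearMap.BilinForm.mem_orthogonal_iff]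
    constructor
    · intro h i
      exact h _ (Submodule.subset_span ⟨i, rfl⟩)
    · intro h w hw
      change Cfsg.Agent.ClGeo.sB F m w y = 0
      induction hw using Submodule.span_induction with
      | mem w hw => obtain ⟨i, rfl⟩ := hw; exact h i
      | zero => rw [map_zero, LinearMap.zero_apply]
      | add a b _ _ ha hb => rw [map_add, LinearMap.add_apply, ha, hb, add_zero]
      | smul a b _ hb => rw [map_smul, LinearMap.smul_apply, hb, smul_zero]
  have hle : W ≤ Wp := by
    rw [hW, Submodule.span_le]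
    rintro _ ⟨i, rfl⟩
    exact (hmem _).2 fun j => hx.2 j i
  have h1 : Nat.card {y : V F m // (∀ i, Cfsg.Agent.ClGeo.sB F m (x i) y = 0) ∧ y ∉ W} =
      Nat.card ((Wp : Set (V F m)) \ (W : Set (V F m)) : Set (V F m)) := by
    refine Nat.card_congr (Equiv.subtypeEquivRight fun y => ?_)
    rw [Set.mem_sdiff, SetLike.mem_coe, SetLike.mem_coe, hmem]
  rw [h1, Nat.card_coe_set_eq, Set.ncard_sdiff hle (Set.toFinite _), ← Nat.card_coe_set_eq, ← Nat.card_coe_set_eq]
  have h2 := card_sub m Wp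
  have h3 := card_sub m W
  rw [hfWp] at h2
  rw [hfW] at h3
  rw [← h2, ← h3]
  rfl

theorem card_Fr_succ (k : ℕ) : Nat.card (Fr F m (k + 1)) =
    Nat.card (Fr F m k) * (Fintype.card F ^ (2 * m - k) - Fintype.card F ^ k) := by
  classical
  have e : Fr F m (k + 1) ≃ Σ x : Fr F m k, {y : V F m // (∀ i, Cfsg.Agent.ClGeo.sB F m ((x : Fin k → V F m) i) y = 0) ∧
      y ∉ Submodule.span F (Set.range (x : Fin k → V F m))} := by
    refine ⟨fun z => ⟨⟨Fin.init z.1, ?_, ?_⟩, ⟨z.1 (Fin.last k), ?_, ?_⟩⟩,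
      fun z => ⟨Fin.snoc z.1.1 z.2.1, ?_, ?_⟩, ?_, ?_⟩
    · exact z.2.1.comp _ (Fin.castSucc_injective k)
    · intro i j; exact z.2.2 _ _
    · intro i; exact z.2.2 _ _
    · have h := z.2.1
      rw [← Fin.snoc_init_self z.1, linearIndependent_finSnoc] at h
      exact h.2
    · rw [linearIndependent_finSnoc]
      exact ⟨z.1.2.1, z.2.2.2⟩
    · have hxy : ∀ i, Cfsg.Agent.ClGeo.sB F m (z.1.1 i) z.2.1 = 0 := z.2.2.1
      have hyx : ∀ i, Cfsg.Agent.ClGeo.sB F m z.2.1 (z.1.1 i) = 0 := by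
        intro i
        rw [← LinearMap.BilinForm.IsAlt.neg_eq (Cfsg.Agent.ClGeo.sB_isAlt m), hxy, neg_zero]
      intro i j
      refine Fin.lastCases ?_ (fun i => ?_) i <;> refine Fin.lastCases ?_ (fun j => ?_) j
      · rw [Fin.snoc_last]; exact Cfsg.Agent.ClGeo.sB_isAlt m _
      · rw [Fin.snoc_last, Fin.snoc_castSucc]; exact hyx j
      · rw [Fin.snoc_last, Fin.snoc_castSucc]; exact hxy i
      · rw [Fin.snoc_castSucc, Fin.snoc_castSucc]; exact z.1.2.2 i j
    · intro z
      apply Subtype.ext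
      exact Fin.snoc_init_self z.1
    · rintro ⟨⟨x, hx⟩, ⟨y, hy⟩⟩
      exact Sigma.subtype_ext (Subtype.ext (Fin.init_snoc (α := fun _ => V F m) y x))
        (Fin.snoc_last (α := fun _ => V F m) y x)
  rw [Nat.card_congr e, Nat.card_sigma]
  have h : ∀ x : Fr F m k, Nat.card {y : V F m // (∀ i, Cfsg.Agent.ClGeo.sB F m ((x : Fin k → V F m) i) y = 0) ∧
      y ∉ Submodule.span F (Set.range (x : Fin k → V F m))} = Fintype.card F ^ (2 * m - k) - Fintype.card F ^ k :=
    fun x => card_next m x.2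
  rw [Finset.sum_congr rfl fun x _ => h x, Finset.sum_const, smul_eq_mul, Nat.card_eq_fintype_card]
  rfl

/-- the group -/
abbrev Sp (F : Type*) [Field F] (m : ℕ) := ↥(Matrix.symplecticGroup (Fin m) F)

/-- the action -/
def ac (A : Sp F m) (v : V F m) : V F m := Cfsg.spToMat m F A *ᵥ v

omit [Fintype F]

theorem ac_mul (A A' : Sp F m) (v : V F m) : ac m (A * A') v = ac m A (ac m A' v) := by
  unfold ac; rw [map_mul, Matrix.mulVec_mulVec]

theorem ac_one (v : V F m) : ac m (1 : Sp F m) v = v := by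
  unfold ac; rw [map_one, Matrix.one_mulVec]

theorem ac_inv_ac (A : Sp F m) (v : V F m) : ac m A⁻¹ (ac m A v) = v := by
  rw [← ac_mul, inv_mul_cancel, ac_one]

theorem ac_ac_inv (A : Sp F m) (v : V F m) : ac m A (ac m A⁻¹ v) = v := by
  rw [← ac_mul, mul_inv_cancel, ac_one]

theorem ac_form (A : Sp F m) (u v : V F m) :
    Cfsg.Agent.ClGeo.sB F m (ac m A u) (ac m A v) = Cfsg.Agent.ClGeo.sB F m u v := by
  rw [Cfsg.Agent.ClGeo.sB_apply, Cfsg.Agent.ClGeo.sB_apply]
  exact Cfsg.Agent.ClGeo.sympForm_mulVec m A.2 u v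

theorem lift_iso (g : V F m ≃ₗ[F] V F m)
    (hg : ∀ u v, Cfsg.Agent.ClGeo.sB F m (g u) (g v) = Cfsg.Agent.ClGeo.sB F m u v) :
    ∃ A : Sp F m, ∀ v, ac m A v = g v := by
  refine ⟨⟨LinearMap.toMatrix' (g : V F m →ₗ[F] V F m), ?_⟩, fun v => LinearMap.toMatrix'_mulVec _ v⟩
  rw [Cfsg.Agent.ClGeo.mem_symplecticGroup_iff]
  intro u v
  rw [LinearMap.toMatrix'_mulVec, LinearMap.toMatrix'_mulVec, ← Cfsg.Agent.ClGeo.sB_apply]
  exact (hg u v).trans (Cfsg.Agent.ClGeo.sB_apply m u v)

theorem witt_frame {k : ℕ} {x y : Fin k → V F m} (hx : x ∈ Fr F m k) (hy : y ∈ Fr F m k) :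
    ∃ A : Sp F m, ∀ i, ac m A (x i) = y i := by
  have hW := Cfsg.Agent.Witt.isWittForm_of_isAlt (Cfsg.Agent.ClGeo.sB F m)
    (Cfsg.Agent.ClGeo.sB_nondegenerate m) (Cfsg.Agent.ClGeo.sB_isAlt m)
  obtain ⟨g, hg, hgx⟩ := hW.family k x y hx.1 hy.1 fun i j => by rw [hx.2, hy.2]
  obtain ⟨A, hA⟩ := lift_iso m g hg
  exact ⟨A, fun i => by rw [hA]; exact hgx i⟩

theorem act_frame {k : ℕ} (A : Sp F m) {x : Fin k → V F m} (hx : x ∈ Fr F m k) : (fun i => ac m A (x i)) ∈ Fr F m k := by
  refine ⟨?_, fun i j => ?_⟩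
  · have hinj : Function.Injective (Matrix.mulVecLin (Cfsg.spToMat m F A)) := by
      intro u v h
      have h1 : ac m A u = ac m A v := h
      rw [← ac_inv_ac m A u, h1, ac_inv_ac]
    have h1 := LinearIndependent.map' hx.1 (Matrix.mulVecLin (Cfsg.spToMat m F A)) (LinearMap.ker_eq_bot.2 hinj)
    have h2 : (fun i => ac m A (x i)) = (Matrix.mulVecLin (Cfsg.spToMat m F A)) ∘ x := rfl
    rw [h2]; exact h1
  · rw [ac_form]; exact hx.2 i j

/-- the pointwise stabiliser of a frame -/
def pst {k : ℕ} (x : Fin k → V F m) : Subgroup (Sp F m) where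
  carrier := {A | ∀ i, ac m A (x i) = x i}
  one_mem' := fun i => ac_one m _
  mul_mem' := by
    intro a b ha hb i
    rw [ac_mul, hb i, ha i]
  inv_mem' := by
    intro a ha i
    conv_lhs => rw [← ha i]
    exact ac_inv_ac m a _

theorem frame_eq_iff {k : ℕ} {x : Fin k → V F m} (A A' : Sp F m) :
    ((fun i => ac m A (x i)) = fun i => ac m A' (x i)) ↔ A⁻¹ * A' ∈ pst m x := by
  constructor
  · intro h i
    have h1 : ac m A (x i) = ac m A' (x i) := congrFun h i
    rw [ac_mul, ← h1, ac_inv_ac]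
  · intro h
    funext i
    have h1 : ac m (A⁻¹ * A') (x i) = x i := h i
    conv_lhs => rw [← h1]
    rw [ac_mul, ac_ac_inv]

theorem card_Sp_frame {k : ℕ} {x : Fin k → V F m} (hx : x ∈ Fr F m k) :
    Nat.card (Sp F m) = Nat.card (Fr F m k) * Nat.card (pst m x) := by
  refine card_of_orbit (pst m x) (fun A i => ac m A (x i)) _
    (fun A => act_frame m A hx) (fun y hy => ?_) (frame_eq_iff m)
  obtain ⟨A, hA⟩ := witt_frame m hx hy
  exact ⟨A, funext hA⟩

/-- the stabiliser of the space spanned by a frame -/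
theorem card_stab_frame {k : ℕ} {x : Fin k → V F m} (hx : x ∈ Fr F m k) {W : Submodule F (V F m)}
    (hW : Submodule.span F (Set.range x) = W) :
    Nat.card ↥(Cfsg.stabilizing (Cfsg.spToMat m F) (W : Set (V F m))) =
      Nat.card {y : Fin k → W // LinearIndependent F y} * Nat.card (pst m x) := by
  set St := Cfsg.stabilizing (Cfsg.spToMat m F) (W : Set (V F m)) with hSt
  have hxW : ∀ i, x i ∈ W := fun i => hW ▸ Submodule.subset_span ⟨i, rfl⟩
  have hiso : ∀ u ∈ W, ∀ v ∈ W, Cfsg.Agent.ClGeo.sB F m u v = 0 := by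
    intro u hu v hv
    rw [← hW] at hu hv
    induction hu using Submodule.span_induction with
    | mem u hu =>
      obtain ⟨i, rfl⟩ := hu
      induction hv using Submodule.span_induction with
      | mem v hv => obtain ⟨j, rfl⟩ := hv; exact hx.2 i j
      | zero => rw [map_zero]
      | add a b _ _ ha hb => rw [map_add, ha, hb, add_zero]
      | smul a b _ hb => rw [map_smul, hb, smul_zero]
    | zero => rw [map_zero, LinearMap.zero_apply]
    | add a b _ _ ha hb => rw [map_add, LinearMap.add_apply, ha, hb, add_zero]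
    | smul a b _ hb => rw [map_smul, LinearMap.smul_apply, hb, smul_zero]
  have hle : pst m x ≤ St := by
    intro A hA v
    have hfix : ∀ w ∈ W, ac m A w = w := by
      intro w hw
      rw [← hW] at hw
      induction hw using Submodule.span_induction with
      | mem w hw => obtain ⟨i, rfl⟩ := hw; exact hA i
      | zero => exact Matrix.mulVec_zero _
      | add a b _ _ ha hb =>
        change Cfsg.spToMat m F A *ᵥ (a + b) = _
        rw [Matrix.mulVec_add]
        exact congrArg₂ _ ha hb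
      | smul a b _ hb =>
        change Cfsg.spToMat m F A *ᵥ (a • b) = _
        rw [Matrix.mulVec_smul]
        exact congrArg _ hb
    constructor
    · intro hv
      have := hfix v hv
      change ac m A v ∈ W
      rw [this]; exact hv
    · intro hv
      have h1 : ac m A (ac m A v) = ac m A v := hfix _ hv
      have h2 := congrArg (ac m A⁻¹) h1
      rw [ac_inv_ac, ac_inv_ac] at h2
      have h3 : ac m A v ∈ W := hv
      rwa [h2] at h3
  have hpst : Nat.card (pst m x) = Nat.card ((pst m x).subgroupOf St) :=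
    Nat.card_congr (Subgroup.subgroupOfEquivOfLe hle).symm.toEquiv
  rw [hpst]
  refine (card_of_orbit ((pst m x).subgroupOf St) (fun A : St => fun i => ac m A (x i))
    {y | (∀ i, y i ∈ W) ∧ LinearIndependent F y} ?_ ?_ ?_).trans ?_
  · intro A
    exact ⟨fun i => (A.2 (x i)).1 (hxW i), (act_frame m (A : Sp F m) hx).1⟩
  · rintro y ⟨hyW, hy⟩
    have hyF : y ∈ Fr F m k := ⟨hy, fun i j => hiso _ (hyW i) _ (hyW j)⟩
    obtain ⟨A, hA⟩ := witt_frame m hx hyF
    have hAW : ∀ v ∈ W, ac m A v ∈ W := by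
      intro w hw
      rw [← hW] at hw
      induction hw using Submodule.span_induction with
      | mem w hw => obtain ⟨i, rfl⟩ := hw; rw [hA]; exact hyW i
      | zero =>
        have : ac m A 0 = 0 := Matrix.mulVec_zero _
        rw [this]; exact zero_mem _
      | add a b _ _ ha hb =>
        have : ac m A (a + b) = ac m A a + ac m A b := Matrix.mulVec_add _ _ _
        rw [this]; exact add_mem ha hb
      | smul a b _ hb =>
        have : ac m A (a • b) = a • ac m A b := Matrix.mulVec_smul _ _ _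
        rw [this]; exact W.smul_mem a hb
    have hfin : finrank F W = k := by rw [← hW, finrank_span_eq_card hx.1, Fintype.card_fin]
    have hspan : Submodule.span F (Set.range y) = W := by
      apply Submodule.eq_of_le_of_finrank_eq
      · rw [Submodule.span_le]; rintro _ ⟨i, rfl⟩; exact hyW i
      · rw [finrank_span_eq_card hy, Fintype.card_fin, hfin]
    have hAW' : ∀ v ∈ W, ac m A⁻¹ v ∈ W := by
      intro w hw
      rw [← hspan] at hw
      induction hw using Submodule.span_induction with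
      | mem w hw => obtain ⟨i, rfl⟩ := hw; rw [← hA, ac_inv_ac]; exact hxW i
      | zero =>
        have : ac m A⁻¹ 0 = 0 := Matrix.mulVec_zero _
        rw [this]; exact zero_mem _
      | add a b _ _ ha hb =>
        have : ac m A⁻¹ (a + b) = ac m A⁻¹ a + ac m A⁻¹ b := Matrix.mulVec_add _ _ _
        rw [this]; exact add_mem ha hb
      | smul a b _ hb =>
        have : ac m A⁻¹ (a • b) = a • ac m A⁻¹ b := Matrix.mulVec_smul _ _ _
        rw [this]; exact W.smul_mem a hb
    refine ⟨⟨A, fun v => ⟨hAW v, fun hv => ?_⟩⟩, funext hA⟩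
    have := hAW' _ hv
    change ac m A⁻¹ (ac m A v) ∈ W at this
    rwa [ac_inv_ac] at this
  · intro A A'
    rw [Subgroup.mem_subgroupOf]
    exact frame_eq_iff m (x := x) (A : Sp F m) (A' : Sp F m)
  · congr 1
    refine Nat.card_congr ⟨fun y => ⟨fun i => ⟨y.1 i, y.2.1 i⟩, ?_⟩, fun y => ⟨fun i => (y.1 i : V F m), fun i => (y.1 i).2, ?_⟩,
      fun y => rfl, fun y => rfl⟩
    · exact LinearIndependent.of_comp W.subtype y.2.2
    · exact y.2.map' W.subtype W.ker_subtype

theorem tri_succ (k : ℕ) : (k + 1) * (k + 1 + 1) / 2 = k * (k + 1) / 2 + (k + 1) := by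
  have : (k + 1) * (k + 1 + 1) = k * (k + 1) + (k + 1) * 2 := by ring
  rw [this, Nat.add_mul_div_right _ _ (by norm_num)]

theorem arith [Fintype F] (k : ℕ) (hk : k ≤ m) : Nat.card (Fr F m k) * (Fintype.card F ^ (k * (k + 1) / 2 + 2 * k * (m - k)) *
      (Fintype.card F ^ ((m - k) ^ 2) * ∏ i ∈ Finset.range (m - k), (Fintype.card F ^ (2 * (i + 1)) - 1))) =
    Fintype.card F ^ (m ^ 2) * ∏ i ∈ Finset.range m, (Fintype.card F ^ (2 * (i + 1)) - 1) := by
  induction k with
  | zero =>
    have h0 : Nat.card (Fr F m 0) = 1 := by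
      rw [Nat.card_eq_one_iff_unique]
      refine ⟨⟨fun a b => Subtype.ext (Subsingleton.elim _ _)⟩, ⟨⟨fun i => i.elim0, ?_, fun i => i.elim0⟩⟩⟩
      exact linearIndependent_empty_type
    rw [h0]; simp
  | succ k ih =>
    have ih := ih (by omega)
    obtain ⟨j, rfl⟩ : ∃ j, m = k + 1 + j := ⟨m - (k + 1), by omega⟩
    rw [← ih, card_Fr_succ]
    have e1 : k + 1 + j - (k + 1) = j := by omega
    have e2 : k + 1 + j - k = j + 1 := by omega
    have e3 : 2 * (k + 1 + j) - k = k + 2 * (j + 1) := by omega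
    rw [e1, e2, e3, Finset.prod_range_succ]
    have e4 : Fintype.card F ^ (k + 2 * (j + 1)) - Fintype.card F ^ k =
        Fintype.card F ^ k * (Fintype.card F ^ (2 * (j + 1)) - 1) := by
      rw [Nat.mul_sub, mul_one, ← pow_add]
    have e5 : Fintype.card F ^ k * Fintype.card F ^ ((k + 1) * (k + 1 + 1) / 2 + 2 * (k + 1) * j) *
        Fintype.card F ^ (j ^ 2) = Fintype.card F ^ (k * (k + 1) / 2 + 2 * k * (j + 1)) * Fintype.card F ^ ((j + 1) ^ 2) := by
      rw [← pow_add, ← pow_add, ← pow_add, tri_succ]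
      congr 1
      ring
    rw [e4]
    calc Nat.card (Fr F (k + 1 + j) k) * (Fintype.card F ^ k * (Fintype.card F ^ (2 * (j + 1)) - 1)) *
          (Fintype.card F ^ ((k + 1) * (k + 1 + 1) / 2 + 2 * (k + 1) * j) *
          (Fintype.card F ^ (j ^ 2) * ∏ i ∈ Finset.range j, (Fintype.card F ^ (2 * (i + 1)) - 1)))
        = Nat.card (Fr F (k + 1 + j) k) * ((Fintype.card F ^ k * Fintype.card F ^ ((k + 1) * (k + 1 + 1) / 2 + 2 * (k + 1) * j) *
        Fintype.card F ^ (j ^ 2)) * ((∏ i ∈ Finset.range j, (Fintype.card F ^ (2 * (i + 1)) - 1)) *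
          (Fintype.card F ^ (2 * (j + 1)) - 1))) := by ring
      _ = _ := by rw [e5]; ring

theorem main [Fintype F] {q : ℕ} (hF : Fintype.card F = q) (m k : ℕ) (hk : k ≤ m)
    (W : Submodule F (Fin m ⊕ Fin m → F)) (hWk : Module.finrank F W = k)
    (hW : ∀ u ∈ W, ∀ v ∈ W, Cfsg.sympForm m F u v = 0) :
    Nat.card ↥(Cfsg.stabilizing (Cfsg.spToMat m F) (W : Set (Fin m ⊕ Fin m → F))) =
      q ^ (k * (k + 1) / 2 + 2 * k * (m - k)) *
      (q ^ ((m - k) ^ 2) * ∏ i ∈ Finset.range (m - k), (q ^ (2 * (i + 1)) - 1)) * ∏ i : Fin k, (q ^ k - q ^ (i : ℕ)) := by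
  classical
  subst hF
  set b := Module.finBasisOfFinrankEq F W hWk
  have hx : (fun i => (b i : V F m)) ∈ Fr F m k := by
    refine ⟨b.linearIndependent.map' W.subtype W.ker_subtype, fun i j => ?_⟩
    rw [Cfsg.Agent.ClGeo.sB_apply]
    exact hW _ (b i).2 _ (b j).2
  have hspan : Submodule.span F (Set.range fun i => (b i : V F m)) = W := by
    have h1 : Set.range (fun i => (b i : V F m)) = W.subtype '' Set.range b := by
      rw [← Set.range_comp]; rfl
    rw [h1, ← Submodule.map_span, b.span_eq, Submodule.map_top, Submodule.range_subtype]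
  rw [card_stab_frame m hx hspan, card_linearIndependent (by rw [hWk]), hWk]
  have h1 := card_Sp_frame m hx
  have h2 := arith (F := F) m k hk
  have h3 : Nat.card (Sp F m) = _ := Cfsg.Agent.ClassSp.card_fin (F := F) m
  rw [← h3, h1] at h2
  have hpos : 0 < Nat.card (Fr F m k) := by
    have h4 : 0 < Nat.card (Sp F m) := Nat.card_pos
    rw [h1] at h4
    exact Nat.pos_of_mul_pos_right h4
  have h5 := Nat.eq_of_mul_eq_mul_left hpos h2
  rw [← h5]
  ring

end Cfsg.Agent.SpOrd
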