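import Cfsg.Agent.SpOrd.Par

set_option autoImplicit false

/-!
The normaliser of the diagonal torus of the symplectic group.
-/

namespace Cfsg.Agent.SpOrd

open Matrix Module

/-! ### signed permutations -/

/-- maps of the signed points commuting with the sign change -/
def TS (m : ℕ) : Set (Fin m ⊕ Fin m → Fin m ⊕ Fin m) := {π | Function.Bijective π ∧ ∀ i, π i.swap = (π i).swap}

/-- forgetting the sign -/
def pr {m : ℕ} : Fin m ⊕ Fin m → Fin m := Sum.elim id id

theorem pr_eq_iff {m : ℕ} {a b : Fin m ⊕ Fin m} : pr a = pr b ↔ a = b ∨ a = b.swap := by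
  rcases a with a | a <;> rcases b with b | b <;> simp [pr, Sum.swap]

/-- the signed permutation -/
def mkS {m : ℕ} (σ : Equiv.Perm (Fin m)) (ε : Fin m → Bool) : Fin m ⊕ Fin m → Fin m ⊕ Fin m :=
  Sum.elim (fun i => if ε i then Sum.inr (σ i) else Sum.inl (σ i)) (fun i => if ε i then Sum.inl (σ i) else Sum.inr (σ i))

theorem mkS_swap {m : ℕ} (σ : Equiv.Perm (Fin m)) (ε : Fin m → Bool) (i : Fin m ⊕ Fin m) :
    mkS σ ε i.swap = (mkS σ ε i).swap := by
  rcases i with i | i <;> cases h : ε i <;> simp [mkS, h, Sum.swap]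

theorem mkS_mem {m : ℕ} (σ : Equiv.Perm (Fin m)) (ε : Fin m → Bool) : mkS σ ε ∈ TS m := by
  refine ⟨Finite.injective_iff_bijective.1 ?_, mkS_swap σ ε⟩
  intro a b h
  rcases a with a | a <;> rcases b with b | b <;> cases ha : ε a <;> cases hb : ε b <;>
    simp [mkS, ha, hb] at h <;> subst h <;> simp_all

theorem card_TS (m : ℕ) : Nat.card (TS m) = 2 ^ m * Nat.factorial m := by
  have hinj : ∀ π : TS m, Function.Injective fun i : Fin m => pr (π.1 (Sum.inl i)) := by
    rintro ⟨π, hπ, hs⟩ i j h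
    simp only at h
    rw [pr_eq_iff] at h
    rcases h with h | h
    · exact Sum.inl.inj (hπ.1 h)
    · rw [← hs] at h
      exact absurd (hπ.1 h) (by simp)
  have e : TS m ≃ Equiv.Perm (Fin m) × (Fin m → Bool) := by
    refine ⟨fun π => (Equiv.ofBijective _ (Finite.injective_iff_bijective.1 (hinj π)), fun i => (π.1 (Sum.inl i)).isRight),
      fun p => ⟨mkS p.1 p.2, mkS_mem _ _⟩, ?_, ?_⟩
    · rintro ⟨π, hπ, hs⟩
      apply Subtype.ext
      have hl : ∀ i : Fin m, mkS (Equiv.ofBijective _ (Finite.injective_iff_bijective.1 (hinj ⟨π, hπ, hs⟩)))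
          (fun i => (π (Sum.inl i)).isRight) (Sum.inl i) = π (Sum.inl i) := by
        intro i
        rcases h : π (Sum.inl i) with a | a <;> simp [mkS, h, pr]
      funext i
      rcases i with i | i
      · exact hl i
      · have h1 := mkS_swap (Equiv.ofBijective _ (Finite.injective_iff_bijective.1 (hinj ⟨π, hπ, hs⟩)))
          (fun i => (π (Sum.inl i)).isRight) (Sum.inl i)
        have h2 := hs (Sum.inl i)
        rw [hl, ← h2] at h1
        exact h1
    · rintro ⟨σ, ε⟩
      refine Prod.ext (Equiv.ext fun i => ?_) (funext fun i => ?_)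
      · cases h : ε i <;> simp [mkS, h, pr]
      · cases h : ε i <;> simp [mkS, h]
  rw [Nat.card_congr e, Nat.card_prod, Nat.card_eq_fintype_card, Nat.card_eq_fintype_card, Fintype.card_perm,
    Fintype.card_fin, Fintype.card_fun, Fintype.card_bool, Fintype.card_fin, mul_comm]

/-! ### the form -/

variable {F : Type*} [Field F] (m : ℕ)

/-- the sign of the form -/
def cs (F : Type*) [Field F] {m : ℕ} : Fin m ⊕ Fin m → F := Sum.elim (fun _ => -1) (fun _ => 1)

theorem cs_swap {m : ℕ} (i : Fin m ⊕ Fin m) : cs F i.swap = - cs F i := by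
  rcases i with i | i <;> simp [cs, Sum.swap]

theorem cs_sq {m : ℕ} (i : Fin m ⊕ Fin m) : cs F i * cs F i = 1 := by
  rcases i with i | i <;> simp [cs]

theorem cs_ne {m : ℕ} (i : Fin m ⊕ Fin m) : cs F i ≠ 0 := by
  intro h
  have := cs_sq (F := F) i
  rw [h, mul_zero] at this
  exact zero_ne_one this

theorem form_sum (u v : V F m) : Cfsg.sympForm m F u v = ∑ k : Fin m ⊕ Fin m, cs F k * (u k * v k.swap) := by
  rw [Cfsg.Agent.ClGeo.sympForm_eq, Fintype.sum_sum_type, ← Finset.sum_add_distrib]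
  refine Finset.sum_congr rfl fun i _ => ?_
  simp [cs, Sum.swap]; ring

/-- basis vectors -/
abbrev e (F : Type*) [Field F] {m : ℕ} (i : Fin m ⊕ Fin m) : V F m := Pi.single i 1

theorem e_ne {m : ℕ} (i : Fin m ⊕ Fin m) : e F i ≠ 0 := by
  intro h
  have := congrFun h i
  simp at this

theorem e_same {m : ℕ} (i : Fin m ⊕ Fin m) : e F i i = 1 := Pi.single_eq_same ..

theorem e_off {m : ℕ} {i k : Fin m ⊕ Fin m} (h : k ≠ i) : e F i k = 0 := Pi.single_eq_of_ne h _

theorem form_e (i j : Fin m ⊕ Fin m) : Cfsg.sympForm m F (e F i) (e F j) = if j = i.swap then cs F i else 0 := by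
  rw [form_sum, Finset.sum_eq_single i]
  · rw [e_same]
    by_cases h : j = i.swap
    · rw [if_pos h, h, e_same]; ring
    · rw [if_neg h, e_off (Ne.symm h)]; ring
  · intro k _ hk
    rw [e_off hk]; ring
  · intro h; exact absurd (Finset.mem_univ _) h

theorem exists_mono {π : Fin m ⊕ Fin m → Fin m ⊕ Fin m} (hπ : π ∈ TS m) (s : Fin m ⊕ Fin m → F)
    (hs : ∀ i, cs F (π i) * (s i * s i.swap) = cs F i) :
    ∃ A : Sp F m, ∀ u i, ac m A u (π i) = s i * u i := by
  have h1 : ∀ (u : V F m) i, ((Matrix.of fun k i => if k = π i then s i else 0) *ᵥ u) (π i) = s i * u i := by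
    intro u i
    rw [Matrix.mulVec, dotProduct, Finset.sum_eq_single i]
    · simp
    · intro j _ hj
      have : π i ≠ π j := fun h => hj (hπ.1.1 h).symm
      simp [this]
    · intro h; exact absurd (Finset.mem_univ _) h
  refine ⟨⟨Matrix.of fun k i => if k = π i then s i else 0, ?_⟩, h1⟩
  rw [Cfsg.Agent.ClGeo.mem_symplecticGroup_iff]
  intro u v
  rw [form_sum, form_sum, ← hπ.1.sum_comp]
  refine Finset.sum_congr rfl fun i _ => ?_
  rw [← hπ.2, h1, h1, ← hs i]; ring

theorem exists_mono_e {π : Fin m ⊕ Fin m → Fin m ⊕ Fin m} (hπ : π ∈ TS m) (s : Fin m ⊕ Fin m → F)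
    (hs : ∀ i, cs F (π i) * (s i * s i.swap) = cs F i) :
    ∃ A : Sp F m, ∀ i, ac m A (e F i) = s i • e F (π i) := by
  obtain ⟨A, hA⟩ := exists_mono m hπ s hs
  refine ⟨A, fun i => ?_⟩
  funext k
  obtain ⟨j, rfl⟩ := hπ.1.2 k
  rw [hA]
  by_cases h : j = i
  · subst h; simp
  · have : π j ≠ π i := fun h' => h (hπ.1.1 h')
    simp [h, this]

/-! ### the torus -/

/-- the torus -/
def T (F : Type*) [Field F] (m : ℕ) : Subgroup (Sp F m) := ⨅ i : Fin m ⊕ Fin m, Cfsg.stabilizing (Cfsg.spToMat m F)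
  ((Submodule.span F {(Pi.single i (1 : F) : Fin m ⊕ Fin m → F)} : Submodule F (Fin m ⊕ Fin m → F)) : Set (Fin m ⊕ Fin m → F))

theorem ac_smul (A : Sp F m) (c : F) (v : V F m) : ac m A (c • v) = c • ac m A v := Matrix.mulVec_smul _ _ _

theorem ac_add (A : Sp F m) (u v : V F m) : ac m A (u + v) = ac m A u + ac m A v := Matrix.mulVec_add _ _ _

theorem ac_inj (A : Sp F m) {u v : V F m} (h : ac m A u = ac m A v) : u = v := by
  rw [← ac_inv_ac m A u, h, ac_inv_ac]

theorem ac_zero (A : Sp F m) : ac m A 0 = 0 := Matrix.mulVec_zero _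

theorem mem_T {A : Sp F m} : A ∈ T F m ↔ ∀ i, ∃ c : F, ac m A (e F i) = c • e F i := by
  unfold T
  rw [Subgroup.mem_iInf]
  refine forall_congr' fun i => ?_
  constructor
  · intro h
    have h1 : ac m A (e F i) ∈ Submodule.span F {e F i} := (h (e F i)).1 (Submodule.mem_span_singleton_self _)
    obtain ⟨c, hc⟩ := Submodule.mem_span_singleton.1 h1
    exact ⟨c, hc.symm⟩
  · rintro ⟨c, hc⟩ v
    have hc0 : c ≠ 0 := by
      rintro rfl
      rw [zero_smul] at hc
      exact e_ne i (ac_inj m A (hc.trans (ac_zero m A).symm))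
    constructor
    · intro hv
      obtain ⟨d, rfl⟩ := Submodule.mem_span_singleton.1 hv
      change ac m A (d • e F i) ∈ Submodule.span F {e F i}
      rw [ac_smul, hc]
      exact Submodule.smul_mem _ _ (Submodule.smul_mem _ _ (Submodule.mem_span_singleton_self _))
    · intro hv
      obtain ⟨d, hd⟩ := Submodule.mem_span_singleton.1 hv
      have hd' : d • e F i = ac m A v := hd
      have : v = (d * c⁻¹) • e F i := by
        apply ac_inj m A
        rw [← hd', ac_smul, hc, smul_smul, mul_assoc, inv_mul_cancel₀ hc0, mul_one]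
      rw [this]
      exact Submodule.smul_mem _ _ (Submodule.mem_span_singleton_self _)

theorem id_mem_TS : (id : Fin m ⊕ Fin m → Fin m ⊕ Fin m) ∈ TS m := ⟨Function.bijective_id, fun _ => rfl⟩

theorem exists_T (s : Fin m ⊕ Fin m → F) (hs : ∀ i, s i * s i.swap = 1) :
    ∃ A ∈ T F m, ∀ u i, ac m A u i = s i * u i := by
  obtain ⟨A, hA⟩ := exists_mono m (id_mem_TS m) s (fun i => by rw [hs, mul_one]; rfl)
  refine ⟨A, (mem_T m).2 fun i => ⟨s i, ?_⟩, hA⟩
  funext k
  have := hA (e F i) k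
  simp only [id] at this
  rw [this]
  by_cases h : k = i
  · subst h; simp
  · simp [h]

/-- values on the torus -/
theorem T_vals {A : Sp F m} (hA : A ∈ T F m) : ∃ s : Fin m ⊕ Fin m → F, (∀ i, s i * s i.swap = 1) ∧
    ∀ i, ac m A (e F i) = s i • e F i := by
  choose s hs using (mem_T m).1 hA
  refine ⟨s, fun i => ?_, hs⟩
  have h1 := ac_form m A (e F i) (e F i.swap)
  rw [hs, hs, Cfsg.Agent.ClGeo.sB_apply, Cfsg.Agent.ClGeo.sB_apply, Cfsg.Agent.ClGeo.sympForm_smul_left,
    Cfsg.Agent.ClGeo.sympForm_smul_right, form_e, if_pos rfl, ← mul_assoc] at h1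
  exact mul_right_cancel₀ (cs_ne i) (h1.trans (one_mul _).symm)

theorem ext_e {A A' : Sp F m} (h : ∀ i, ac m A (e F i) = ac m A' (e F i)) : A = A' := by
  apply Subtype.ext
  ext i j
  have := congrFun (h j) i
  unfold ac at this
  simpa [Cfsg.spToMat] using this

theorem card_T [Fintype F] : Nat.card (T F m) = (Fintype.card F - 1) ^ m := by
  classical
  choose s hs1 hs2 using fun A : T F m => T_vals m A.2
  have hne : ∀ A i, s A i ≠ 0 := fun A i h => by
    have := hs1 A i
    rw [h, zero_mul] at this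
    exact zero_ne_one this
  rw [Nat.card_congr (Equiv.ofBijective (fun A : T F m => fun i : Fin m => Units.mk0 (s A (Sum.inl i)) (hne _ _)) ⟨?_, ?_⟩)]
  · rw [Nat.card_eq_fintype_card, Fintype.card_fun, Fintype.card_units, Fintype.card_fin]
  · intro A A' h
    apply Subtype.ext
    apply ext_e m
    have hl : ∀ i, s A (Sum.inl i) = s A' (Sum.inl i) := fun i => congrArg Units.val (congrFun h i)
    intro i
    rw [hs2, hs2]
    congr 1
    rcases i with i | i
    · exact hl i
    · have h1 := hs1 A (Sum.inl i)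
      have h2 := hs1 A' (Sum.inl i)
      rw [hl] at h1
      exact mul_left_cancel₀ (hne A' (Sum.inl i)) (h1.trans h2.symm)
  · intro a
    obtain ⟨A, hA, h1⟩ := exists_T m (Sum.elim (fun i => (a i : F)) fun i => ((a i)⁻¹ : Fˣ)) (by
      rintro (i | i) <;> simp [Sum.swap])
    refine ⟨⟨A, hA⟩, ?_⟩
    funext i
    apply Units.ext
    change s ⟨A, hA⟩ (Sum.inl i) = a i
    have h2 := congrFun (hs2 ⟨A, hA⟩ (Sum.inl i)) (Sum.inl i)
    change ac m A (e F (Sum.inl i)) (Sum.inl i) = _ at h2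
    rw [h1] at h2
    simpa using h2.symm

/-! ### the normaliser -/

theorem exists_sep [Fintype F] (hq : 4 ≤ Fintype.card F) {j k : Fin m ⊕ Fin m} (hjk : j ≠ k) :
    ∃ A ∈ T F m, ∃ s : Fin m ⊕ Fin m → F, s j ≠ s k ∧ ∀ u i, ac m A u i = s i * u i := by
  classical
  obtain ⟨a, ha⟩ : ∃ a : F, a ∉ ({0, 1, -1} : Finset F) := by
    by_contra hcon
    push Not at hcon
    have h1 : (Finset.univ : Finset F) ⊆ {0, 1, -1} := fun a _ => hcon a
    have h2 := Finset.card_le_card h1
    have h3 : ({0, 1, -1} : Finset F).card ≤ 3 := Finset.card_le_three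
    rw [Finset.card_univ] at h2
    omega
  simp only [Finset.mem_insert, Finset.mem_singleton, not_or] at ha
  obtain ⟨ha0, ha1, ha2⟩ := ha
  have hai : a ≠ a⁻¹ := by
    intro h
    have h1 : a * a = 1 := by
      nth_rw 2 [h]; exact mul_inv_cancel₀ ha0
    have h2 : (a - 1) * (a + 1) = 0 := by ring_nf; rw [pow_two, h1]; ring
    rcases mul_eq_zero.1 h2 with h3 | h3
    · exact ha1 (sub_eq_zero.1 h3)
    · exact ha2 (eq_neg_of_add_eq_zero_left h3)
  have hne : j ≠ j.swap := by rcases j with j | j <;> simp [Sum.swap]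
  obtain ⟨A, hA, h1⟩ := exists_T m (fun i => if i = j then a else if i = j.swap then a⁻¹ else 1) (by
    intro i
    by_cases h1 : i = j
    · subst h1
      simp [hne.symm, ha0]
    · by_cases h2 : i = j.swap
      · subst h2
        simp [hne.symm, ha0]
      · have h3 : i.swap ≠ j := fun h => h2 (by rw [← h, Sum.swap_swap])
        have h4 : i.swap ≠ j.swap := fun h => h1 (by rw [← Sum.swap_swap i, h, Sum.swap_swap])
        simp [h1, h2, h3, h4])
  refine ⟨A, hA, _, ?_, h1⟩
  simp only [if_true]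
  rw [if_neg hjk.symm]
  split_ifs
  · exact hai
  · exact ha1

theorem norm_mono [Fintype F] (hq : 4 ≤ Fintype.card F) {g : Sp F m}
    (hg : g ∈ Subgroup.normalizer (T F m : Set (Sp F m))) (i : Fin m ⊕ Fin m) :
    ∃ j, ∃ c : F, c ≠ 0 ∧ ac m g (e F i) = c • e F j := by
  have hv : ac m g (e F i) ≠ 0 := fun h => e_ne i (ac_inj m g (h.trans (ac_zero m g).symm))
  obtain ⟨j, hj⟩ := Function.ne_iff.1 hv
  refine ⟨j, ac m g (e F i) j, hj, ?_⟩
  have key : ∀ k, k ≠ j → ac m g (e F i) k = 0 := by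
    intro k hk
    obtain ⟨A, hA, s, hs, h1⟩ := exists_sep m hq hk.symm
    rw [Subgroup.mem_normalizer_iff] at hg
    have h2 : g⁻¹ * A * g ∈ T F m := by
      rw [SetLike.mem_coe.symm, SetLike.mem_coe]
      refine (hg _).2 ?_
      have : g * (g⁻¹ * A * g) * g⁻¹ = A := by group
      rw [this]; exact hA
    obtain ⟨c, hc⟩ := (mem_T m).1 h2 i
    rw [ac_mul, ac_mul] at hc
    have h3 : ac m A (ac m g (e F i)) = c • ac m g (e F i) := by
      rw [← ac_smul, ← hc, ac_ac_inv]
    have h4 := congrFun h3 j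
    have h5 := congrFun h3 k
    rw [h1, Pi.smul_apply, smul_eq_mul] at h4 h5
    have h6 : s j = c := mul_right_cancel₀ hj h4
    by_contra h7
    have h8 : s k = c := mul_right_cancel₀ h7 h5
    exact hs (h6.trans h8.symm)
  funext k
  by_cases hk : k = j
  · rw [hk, Pi.smul_apply, e_same, smul_eq_mul, mul_one]
  · rw [key k hk, Pi.smul_apply, e_off hk, smul_zero]

theorem smul_e_inj {c d : F} {i j : Fin m ⊕ Fin m} (hc : c ≠ 0) (h : c • e F i = d • e F j) : i = j := by
  by_contra hne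
  have h1 := congrFun h i
  rw [Pi.smul_apply, Pi.smul_apply, e_same, e_off hne, smul_zero, smul_eq_mul, mul_one] at h1
  exact hc h1

theorem mono_mem {g : Sp F m} {π : Fin m ⊕ Fin m → Fin m ⊕ Fin m} (hπ : Function.Surjective π) {s : Fin m ⊕ Fin m → F}
    (hs : ∀ i, s i ≠ 0) (h : ∀ i, ac m g (e F i) = s i • e F (π i)) :
    g ∈ Subgroup.normalizer (T F m : Set (Sp F m)) := by
  have hinv : ∀ i, ac m g⁻¹ (e F (π i)) = (s i)⁻¹ • e F i := by
    intro i
    apply ac_inj m g
    rw [ac_ac_inv, ac_smul, h, smul_smul, inv_mul_cancel₀ (hs i), one_smul]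
  rw [Subgroup.mem_normalizer_iff]
  intro t
  constructor
  · intro ht
    refine (mem_T m).2 fun k => ?_
    obtain ⟨i, rfl⟩ := hπ k
    obtain ⟨c, hc⟩ := (mem_T m).1 ht i
    refine ⟨c, ?_⟩
    rw [ac_mul, ac_mul, hinv, ac_smul, hc, ac_smul, ac_smul, h, smul_smul, smul_smul]
    congr 1
    rw [mul_comm ((s i)⁻¹) _, mul_assoc, inv_mul_cancel₀ (hs i), mul_one]
  · intro ht
    refine (mem_T m).2 fun i => ?_
    obtain ⟨c, hc⟩ := (mem_T m).1 ht (π i)
    refine ⟨c, ?_⟩
    rw [ac_mul, ac_mul, hinv, ac_smul, ac_smul] at hc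
    apply ac_inj m g
    rw [ac_smul, h, smul_smul, mul_comm c, ← smul_smul, ← hc, smul_smul, mul_inv_cancel₀ (hs i), one_smul]

theorem card_norm [Fintype F] (hq : 4 ≤ Fintype.card F) :
    Nat.card (Subgroup.normalizer (T F m : Set (Sp F m))) = 2 ^ m * Nat.factorial m * (Fintype.card F - 1) ^ m := by
  choose π c hc0 hc using fun (g : Subgroup.normalizer (T F m : Set (Sp F m))) (i : Fin m ⊕ Fin m) =>
    norm_mono m hq g.2 i
  have hT : T F m ≤ Subgroup.normalizer (T F m : Set (Sp F m)) := Subgroup.le_normalizer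
  have hTcard : Nat.card ((T F m).subgroupOf (Subgroup.normalizer (T F m : Set (Sp F m)))) = Nat.card (T F m) :=
    Nat.card_congr (Subgroup.subgroupOfEquivOfLe hT).toEquiv
  have h := card_of_orbit ((T F m).subgroupOf (Subgroup.normalizer (T F m : Set (Sp F m)))) π (TS m) ?_ ?_ ?_
  · rw [h, card_TS, hTcard, card_T]
  · intro g
    refine ⟨Finite.injective_iff_bijective.1 ?_, ?_⟩
    · intro i j hij
      have h1 : c g j • e F i = c g i • e F j := by
        apply ac_inj m (g : Sp F m)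
        rw [ac_smul, ac_smul, hc, hc, hij, smul_smul, smul_smul, mul_comm]
      exact smul_e_inj m (hc0 g j) h1
    · intro i
      by_contra hne
      have h1 := ac_form m (g : Sp F m) (e F i) (e F i.swap)
      rw [hc, hc, Cfsg.Agent.ClGeo.sB_apply, Cfsg.Agent.ClGeo.sB_apply, Cfsg.Agent.ClGeo.sympForm_smul_left,
        Cfsg.Agent.ClGeo.sympForm_smul_right, form_e, form_e, if_neg hne, if_pos rfl, mul_zero, mul_zero] at h1
      exact cs_ne i h1.symm
  · intro ρ hρ
    have hsw : ∀ i : Fin m, ρ (Sum.inr i) = (ρ (Sum.inl i)).swap := fun i => hρ.2 (Sum.inl i)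
    obtain ⟨A, hA⟩ := exists_mono_e m hρ (Sum.elim (fun _ => (1 : F)) fun i => cs F (Sum.inl i : Fin m ⊕ Fin m) * cs F (ρ (Sum.inl i))) (by
      rintro (i | i)
      · simp only [Sum.swap_inl, Sum.elim_inl, Sum.elim_inr, one_mul]
        rw [mul_comm, mul_assoc, cs_sq, mul_one]
      · simp only [Sum.swap_inr, Sum.elim_inl, Sum.elim_inr, mul_one]
        rw [hsw, cs_swap]
        have h1 := cs_swap (F := F) (Sum.inl i : Fin m ⊕ Fin m)
        rw [Sum.swap_inl] at h1
        rw [h1, mul_comm, mul_assoc, mul_neg, cs_sq]; ring)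
    have hne : ∀ i, (Sum.elim (fun _ => (1 : F)) fun i => cs F (Sum.inl i : Fin m ⊕ Fin m) * cs F (ρ (Sum.inl i)) : Fin m ⊕ Fin m → F) i ≠ 0 := by
      rintro (i | i)
      · exact one_ne_zero
      · exact mul_ne_zero (cs_ne _) (cs_ne _)
    refine ⟨⟨A, mono_mem m hρ.1.2 hne hA⟩, ?_⟩
    funext i
    have h1 := hc ⟨A, mono_mem m hρ.1.2 hne hA⟩ i
    change ac m A (e F i) = _ at h1
    rw [hA] at h1
    exact (smul_e_inj m (hne i) h1).symm
  · intro g g'
    rw [Subgroup.mem_subgroupOf]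
    constructor
    · intro h
      refine (mem_T m).2 fun i => ⟨c g' i * (c g i)⁻¹, ?_⟩
      change ac m ((g : Sp F m)⁻¹ * (g' : Sp F m)) (e F i) = _
      apply ac_inj m (g : Sp F m)
      rw [ac_mul, ac_ac_inv, ac_smul, hc, hc, ← congrFun h i, smul_smul, mul_assoc, inv_mul_cancel₀ (hc0 g i), mul_one]
    · intro h
      funext i
      obtain ⟨d, hd⟩ := (mem_T m).1 h i
      change ac m ((g : Sp F m)⁻¹ * (g' : Sp F m)) (e F i) = _ at hd
      rw [ac_mul] at hd
      have h1 := congrArg (ac m (g : Sp F m)) hd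
      rw [ac_ac_inv, ac_smul, hc, hc, smul_smul] at h1
      exact (smul_e_inj m (hc0 g' i) h1).symm

end Cfsg.Agent.SpOrd
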